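import Mathlib
import Cfsg.Agent.Lib.Blocks.AbFree10

/-!
# Blocks with cyclic defect groups: the normal form of the lattice of columns
-/

set_option autoImplicit false
set_option linter.unusedSectionVars false
set_option linter.style.haveILetI false

namespace Cfsg.Agent.Lib.Dade

open Cfsg Cfsg.Agent.Lib.Blocks.Local Cfsg.Agent.Lib.Blocks.Central Cfsg.Agent.Lib.Blocks.Nilp
open Cfsg.Agent.Lib.Blocks.AbFree
open Cfsg.Agent.Lib.Char.Virtual
open ComplexConjugate

universe u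

section Std

variable {G : Type u} [Group G] [Fintype G]

theorem lattice_std' {T : Type*} [Fintype T] [DecidableEq T] (S : Finset (IrrCharacter G)) (n : IrrCharacter G → T → ℤ)
    (e : ℕ) (hgram : ∀ s t, ∑ χ ∈ S, n χ s * n χ t = if s = t then (e : ℤ) + 1 else e)
    (hone : ∀ t, ∑ χ ∈ S, (n χ t : ℂ) * (χ : G → ℂ) 1 = 0) (hT : 2 ≤ Fintype.card T) :
    ∃ (d ε : ℤ) (f : T → IrrCharacter G) (a : IrrCharacter G → ℤ), (ε = 1 ∨ ε = -1) ∧ Function.Injective f ∧ (∀ t, f t ∈ S) ∧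
      (∀ t, ∀ χ ∈ S, χ ∉ Set.range f → n χ t = a χ) ∧ (∀ s t, n (f t) s = d - ε * if s = t then 1 else 0) ∧
      ∑ χ ∈ S.filter (· ∉ Set.range f), a χ ^ 2 = (e : ℤ) - (Fintype.card T : ℤ) * (d * ε) ^ 2 + 2 * (d * ε) := by
  classical
  let α : T → G → ℂ := fun t => ∑ χ ∈ S, (n χ t : ℂ) • (χ : G → ℂ)
  have hαi : ∀ (t : T) (χ : IrrCharacter G), classInner (α t) (χ : G → ℂ) = if χ ∈ S then (n χ t : ℂ) else 0 := by
    intro t χ
    simp only [α]
    rw [classInner_finset_sum_left]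
    have h1 : ∀ η ∈ S, classInner ((n η t : ℂ) • (η : G → ℂ)) (χ : G → ℂ) = if η = χ then (n η t : ℂ) else 0 := by
      intro η _
      rw [classInner_smul_left, Cfsg.Agent.Lib.Char.Ortho.classInner_irr η.2 χ.2]
      by_cases h : η = χ
      · rw [if_pos h, if_pos (by rw [h]), mul_one]
      · rw [if_neg h, if_neg (fun h' => h (Subtype.ext h')), mul_zero]
    rw [Finset.sum_congr rfl h1, Finset.sum_ite_eq']
  have hgen : ∀ s : T, IsGeneralizedCharacter G (α s) := fun s =>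
    isGeneralized_finset_sum _ fun χ _ => isGeneralized_intCast_smul (isGeneralized_of_isIrr χ.2) _
  have hinner : ∀ s t : T, classInner (α s) (α t) = if s = t then (e : ℂ) + 1 else e := by
    intro s t
    have h1 : classInner (α s) (α t) = ((∑ χ ∈ S, n χ s * n χ t : ℤ) : ℂ) := by
      conv_lhs => rw [show α t = ∑ χ ∈ S, (n χ t : ℂ) • (χ : G → ℂ) from rfl]
      rw [classInner_finset_sum_right]
      push_cast
      refine Finset.sum_congr rfl fun χ hχ => ?_
      rw [classInner_smul_right, hαi, if_pos hχ, map_intCast]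
      ring
    rw [h1, hgram]
    split_ifs <;> simp
  have hα1 : ∀ t, α t 1 = 0 := by
    intro t
    simp only [α, Finset.sum_apply, Pi.smul_apply, smul_eq_mul]
    exact hone t
  obtain ⟨ε', f, hε', hinj, hD⟩ := Cfsg.Agent.Lib.Char.FrobPair.exists_signed_injection (G := G) (T := T)
    (fun s t => α t - α s)
    (fun s t u => by abel)
    (fun s t => isGeneralized_sub (hgen t) (hgen s))
    (fun s t => by
      simp only [Pi.sub_apply, hα1, sub_self])
    (fun s t u hst hsu => by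
      rw [classInner_sub_left, classInner_sub_right, classInner_sub_right, hinner, hinner, hinner, hinner,
        if_neg hst.symm, if_neg hsu, if_pos rfl]
      split_ifs <;> ring)
  have hε2 : ε' * ε' = 1 := by
    rcases hε' with h | h <;> rw [h] <;> ring
  have hε0 : ε' ≠ 0 := by
    rcases hε' with h | h <;> rw [h] <;> norm_num
  have hεconj : conj ε' = ε' := by
    rcases hε' with h | h <;> rw [h] <;> simp
  have hff : ∀ s t : T, classInner (f s : G → ℂ) (f t : G → ℂ) = if s = t then 1 else 0 := by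
    intro s t
    rw [Cfsg.Agent.Lib.Char.Ortho.classInner_irr (f s).2 (f t).2]
    by_cases h : s = t
    · rw [if_pos h, if_pos (by rw [h])]
    · rw [if_neg h, if_neg (fun h' => h (hinj (Subtype.ext h')))]
  have hdiff : ∀ (s t : T) (χ : IrrCharacter G), classInner (α t) (χ : G → ℂ) - classInner (α s) (χ : G → ℂ) =
      ε' * (classInner (f s : G → ℂ) (χ : G → ℂ) - classInner (f t : G → ℂ) (χ : G → ℂ)) := by
    intro s t χ
    rw [← classInner_sub_left, hD s t, classInner_smul_left, classInner_sub_left]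
  let dd : T → ℂ := fun t => classInner (α t) (f t : G → ℂ) + ε'
  have hdd : ∀ s t : T, s ≠ t → classInner (α s) (f t : G → ℂ) = dd t := by
    intro s t hne
    have h1 := hdiff t s (f t)
    rw [hff, hff, if_pos rfl, if_neg hne] at h1
    simp only [dd]
    linear_combination h1
  have hconst : ∀ s t : T, dd s = dd t := by
    intro s t
    by_cases hne : s = t
    · rw [hne]
    have h1 : classInner (α s) (α s - α t) = 1 := by
      rw [classInner_sub_right, hinner, hinner, if_pos rfl, if_neg hne]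
      ring
    have h2 : α s - α t = ε' • ((f t : G → ℂ) - (f s : G → ℂ)) := hD t s
    rw [h2, classInner_smul_right, hεconj, classInner_sub_right, hdd s t hne] at h1
    have h3 : classInner (α s) (f s : G → ℂ) = dd s - ε' := by
      simp only [dd]
      ring
    rw [h3] at h1
    have h4 : ε' * (dd s - dd t) = 0 := by
      linear_combination hε2 - h1
    have := (mul_eq_zero.1 h4).resolve_left hε0
    exact sub_eq_zero.1 this
  obtain ⟨ε, hε⟩ : ∃ ε : ℤ, (ε : ℂ) = ε' ∧ (ε = 1 ∨ ε = -1) := by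
    rcases hε' with h | h
    · exact ⟨1, by rw [h]; simp, Or.inl rfl⟩
    · exact ⟨-1, by rw [h]; simp, Or.inr rfl⟩
  obtain ⟨s₀, t₀, hst⟩ : ∃ s₀ t₀ : T, s₀ ≠ t₀ := by
    have : Nontrivial T := Fintype.one_lt_card_iff_nontrivial.mp hT
    exact exists_pair_ne T
  -- the membership
  have hfS : ∀ t, f t ∈ S := by
    intro t
    obtain ⟨s, hs⟩ : ∃ s : T, s ≠ t := by
      by_cases h : s₀ = t
      · exact ⟨t₀, fun h' => hst (h.trans h'.symm)⟩
      · exact ⟨s₀, h⟩
    by_contra hn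
    have h1 := hdiff t s (f t)
    rw [hff, hff, if_pos rfl, if_neg hs, hαi, hαi, if_neg hn, if_neg hn] at h1
    apply hε0
    linear_combination -h1
  have hval : ∀ s t : T, classInner (α s) (f t : G → ℂ) = (n (f t) s : ℂ) := by
    intro s t
    rw [hαi, if_pos (hfS t)]
  -- the integer `d`
  obtain ⟨d, hd⟩ : ∃ d : ℤ, (d : ℂ) = dd s₀ := ⟨n (f s₀) s₀ + ε, by
    simp only [dd]
    rw [hval, ← hε.1]
    push_cast
    rfl⟩
  have hnY : ∀ s t : T, n (f t) s = d - ε * if s = t then 1 else 0 := by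
    intro s t
    have h1 : ((n (f t) s : ℤ) : ℂ) = ((d - ε * (if s = t then 1 else 0) : ℤ) : ℂ) := by
      rw [← hval]
      push_cast
      rw [hd, hconst s₀ t]
      by_cases h : s = t
      · subst h
        rw [if_pos rfl, hε.1]
        simp only [dd]
        ring
      · rw [if_neg h, hdd s t h]
        ring
    exact Int.cast_injective h1
  have hnX : ∀ s t : T, ∀ χ ∈ S, χ ∉ Set.range f → n χ s = n χ t := by
    intro s t χ hχS hχ
    have h1 := hdiff t s χ
    have h2 : ∀ u : T, classInner (f u : G → ℂ) (χ : G → ℂ) = 0 := by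
      intro u
      apply Cfsg.Agent.Lib.Char.Ortho.classInner_irr_of_ne (f u).2 χ.2
      intro h
      exact hχ ⟨u, Subtype.ext h⟩
    rw [h2, h2, hαi, hαi, if_pos hχS, if_pos hχS] at h1
    simp only [sub_self, mul_zero] at h1
    have h3 : ((n χ s : ℤ) : ℂ) = ((n χ t : ℤ) : ℂ) := sub_eq_zero.mp h1
    exact Int.cast_injective h3
  refine ⟨d, ε, f, fun χ => n χ s₀, hε.2, hinj, hfS, fun t χ hχS hχ => hnX t s₀ χ hχS hχ, hnY, ?_⟩
  -- the norm
  have hsum : ∀ (R : Type) [AddCommMonoid R] (h : IrrCharacter G → R), ∑ χ ∈ S, h χ =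
      ∑ χ ∈ S.filter (· ∉ Set.range f), h χ + ∑ t : T, h (f t) := by
    intro R _ h
    rw [← Finset.sum_filter_add_sum_filter_not S (· ∉ Set.range f)]
    congr 1
    simp only [not_not]
    have h1 : S.filter (· ∈ Set.range f) = Finset.univ.image f := by
      ext χ
      simp only [Finset.mem_filter, Set.mem_range, Finset.mem_image, Finset.mem_univ, true_and]
      constructor
      · exact fun h => h.2
      · rintro ⟨t, rfl⟩
        exact ⟨hfS t, t, rfl⟩
    rw [h1, Finset.sum_image (fun x _ y _ h => hinj h)]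
  have h0 := hgram s₀ s₀
  rw [if_pos rfl, hsum ℤ] at h0
  have h5 : ∑ t : T, n (f t) s₀ * n (f t) s₀ = (d - ε) ^ 2 + ((Fintype.card T : ℤ) - 1) * d ^ 2 := by
    rw [← Finset.add_sum_erase _ _ (Finset.mem_univ s₀), hnY s₀ s₀, if_pos rfl, mul_one]
    congr 1
    · ring
    · have h6 : ∀ t ∈ (Finset.univ.erase s₀ : Finset T), n (f t) s₀ * n (f t) s₀ = d ^ 2 := by
        intro t ht
        rw [hnY s₀ t, if_neg (Finset.ne_of_mem_erase ht).symm]
        ring
      rw [Finset.sum_congr rfl h6, Finset.sum_const, Finset.card_erase_of_mem (Finset.mem_univ _), Finset.card_univ,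
        nsmul_eq_mul]
      have h7 : 1 ≤ Fintype.card T := by omega
      push_cast [h7]
      ring
  rw [h5] at h0
  have hε1 : ε * ε = 1 := by
    rcases hε.2 with h | h <;> rw [h] <;> ring
  have h8 : ∑ χ ∈ S.filter (· ∉ Set.range f), n χ s₀ ^ 2 = ∑ χ ∈ S.filter (· ∉ Set.range f), n χ s₀ * n χ s₀ :=
    Finset.sum_congr rfl fun χ _ => by ring
  rw [h8]
  have h9 : (d * ε) ^ 2 = d ^ 2 := by
    calc (d * ε) ^ 2 = d ^ 2 * (ε * ε) := by ring
      _ = d ^ 2 := by rw [hε1, mul_one]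
  rw [h9]
  have h10 : (d - ε) ^ 2 = d ^ 2 - 2 * (d * ε) + 1 := by
    calc (d - ε) ^ 2 = d ^ 2 - 2 * (d * ε) + ε * ε := by ring
      _ = _ := by rw [hε1]
  rw [h10] at h0
  linarith


/-- **The integer normal form of the lattice.** -/
theorem exists_std_form {T : Type*} [Fintype T] [DecidableEq T] [Nonempty T] (S : Finset (IrrCharacter G))
    (n : IrrCharacter G → T → ℤ) (e : ℕ) (hgram : ∀ s t, ∑ χ ∈ S, n χ s * n χ t = if s = t then (e : ℤ) + 1 else e)
    (hone : ∀ t, ∑ χ ∈ S, (n χ t : ℂ) * (χ : G → ℂ) 1 = 0) (hS : S.card = e + Fintype.card T)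
    (hnz : ∀ χ ∈ S, ∃ t, n χ t ≠ 0) :
    ∃ (s₀ : ℤ) (f : T → IrrCharacter G) (a : IrrCharacter G → ℤ), (s₀ = 1 ∨ s₀ = -1) ∧ Function.Injective f ∧
      (∀ t, f t ∈ S) ∧ (∀ χ ∈ S, χ ∉ Set.range f → (a χ = 1 ∨ a χ = -1) ∧ ∀ t, n χ t = a χ) ∧
      ∀ s t, n (f t) s = s₀ * if s = t then 1 else 0 := by
  classical
  -- squares of nonzero integers
  have hsq : ∀ z : ℤ, z ≠ 0 → 1 ≤ z ^ 2 := fun z hz => by
    have := Int.one_le_abs hz
    nlinarith [abs_nonneg z, sq_abs z]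
  have hsq1 : ∀ z : ℤ, (1 : ℤ) = z ^ 2 → z = 1 ∨ z = -1 := fun z hz => by
    have h1 : (z - 1) * (z + 1) = 0 := by linear_combination -hz
    rcases mul_eq_zero.mp h1 with h | h
    · exact Or.inl (by linarith)
    · exact Or.inr (by linarith)
  by_cases hT : Fintype.card T = 1
  · obtain ⟨t₀, ht₀⟩ := Fintype.card_eq_one_iff.mp hT
    have hnz' : ∀ χ ∈ S, n χ t₀ ≠ 0 := by
      intro χ hχ
      obtain ⟨t, ht⟩ := hnz χ hχ
      rwa [ht₀ t] at ht
    have h1 := hgram t₀ t₀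
    rw [if_pos rfl] at h1
    have hall : ∀ χ ∈ S, (1 : ℤ) = n χ t₀ ^ 2 := by
      have h2 : ∑ χ ∈ S, (1 : ℤ) = ∑ χ ∈ S, n χ t₀ ^ 2 := by
        rw [Finset.sum_const, hS, hT]
        simp only [nsmul_eq_mul, mul_one]
        push_cast
        rw [← h1]
        exact Finset.sum_congr rfl fun χ _ => by ring
      exact (Finset.sum_eq_sum_iff_of_le (fun χ hχ => hsq _ (hnz' χ hχ))).mp h2
    have hne : S.Nonempty := by
      rw [← Finset.card_pos, hS, hT]
      omega
    obtain ⟨χ₁, hχ₁⟩ := hne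
    refine ⟨n χ₁ t₀, fun _ => χ₁, fun χ => n χ t₀, hsq1 _ (hall χ₁ hχ₁), ?_, fun _ => hχ₁, ?_, ?_⟩
    · intro s t _
      rw [ht₀ s, ht₀ t]
    · intro χ hχ _
      refine ⟨hsq1 _ (hall χ hχ), fun t => ?_⟩
      rw [ht₀ t]
    · intro s t
      rw [ht₀ s, ht₀ t, if_pos rfl, mul_one]
  have hT2 : 2 ≤ Fintype.card T := by
    have : 0 < Fintype.card T := Fintype.card_pos
    omega
  obtain ⟨d, ε, f, a, hε, hinj, hfS, hXa, hnY, hnorm⟩ := lattice_std' S n e hgram hone hT2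
  set X := S.filter (· ∉ Set.range f) with hXdef
  have hXc : X.card = e := by
    have h1 : X.card + (S.filter (fun χ => ¬ χ ∉ Set.range f)).card = S.card :=
      Finset.card_filter_add_card_filter_not (s := S) _
    have h2 : S.filter (fun χ => ¬ χ ∉ Set.range f) = Finset.univ.image f := by
      ext χ
      simp only [not_not, Finset.mem_filter, Set.mem_range, Finset.mem_image, Finset.mem_univ, true_and]
      constructor
      · exact fun h => h.2
      · rintro ⟨t, rfl⟩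
        exact ⟨hfS t, t, rfl⟩
    rw [h2, Finset.card_image_of_injective _ hinj, Finset.card_univ] at h1
    omega
  obtain ⟨t₀⟩ := ‹Nonempty T›
  have haX : ∀ χ ∈ X, a χ ≠ 0 := by
    intro χ hχ h0
    obtain ⟨hχS, hχr⟩ := Finset.mem_filter.mp hχ
    obtain ⟨t, ht⟩ := hnz χ hχS
    apply ht
    rw [hXa t χ hχS hχr, h0]
  have hge : (e : ℤ) ≤ ∑ χ ∈ X, a χ ^ 2 := by
    have h1 : ∑ χ ∈ X, (1 : ℤ) ≤ ∑ χ ∈ X, a χ ^ 2 := Finset.sum_le_sum fun χ hχ => hsq _ (haX χ hχ)
    rwa [Finset.sum_const, hXc, nsmul_eq_mul, mul_one] at h1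
  have hε2 : ε * ε = 1 := by
    rcases hε with h | h <;> rw [h] <;> norm_num
  set D := d * ε with hD
  have hdD : d = D * ε := by
    rw [hD, mul_assoc, hε2, mul_one]
  have hm2 : (2 : ℤ) ≤ Fintype.card T := by exact_mod_cast hT2
  have h0D : (Fintype.card T : ℤ) * D ^ 2 ≤ 2 * D := by
    rw [hnorm] at hge
    linarith
  have hcases : D = 0 ∨ (D = 1 ∧ Fintype.card T = 2) := by
    by_cases hD0 : D = 0
    · exact Or.inl hD0
    right
    have hDpos : 0 < D := by
      by_contra hneg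
      have h1 : D < 0 := lt_of_le_of_ne (not_lt.mp hneg) hD0
      nlinarith [sq_nonneg D]
    have h1 : (Fintype.card T : ℤ) * D ≤ 2 := by
      by_contra hlt
      push Not at hlt
      nlinarith
    have h2 : D = 1 := by nlinarith
    rw [h2] at h1
    refine ⟨h2, ?_⟩
    have : (Fintype.card T : ℤ) = 2 := by linarith
    exact_mod_cast this
  have hsum : ∑ χ ∈ X, a χ ^ 2 = (e : ℤ) := by
    rw [hnorm]
    rcases hcases with h | ⟨h, h'⟩
    · rw [h]
      ring
    · rw [h, h']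
      push_cast
      ring
  have hall : ∀ χ ∈ X, (1 : ℤ) = a χ ^ 2 := by
    have h2 : ∑ χ ∈ X, (1 : ℤ) = ∑ χ ∈ X, a χ ^ 2 := by
      rw [Finset.sum_const, hsum, hXc, nsmul_eq_mul, mul_one]
    exact (Finset.sum_eq_sum_iff_of_le (fun χ hχ => hsq _ (haX χ hχ))).mp h2
  have hXpart : ∀ χ ∈ S, χ ∉ Set.range f → (a χ = 1 ∨ a χ = -1) ∧ ∀ t, n χ t = a χ := by
    intro χ hχ hr
    have hmem : χ ∈ X := Finset.mem_filter.mpr ⟨hχ, hr⟩
    exact ⟨hsq1 _ (hall χ hmem), fun t => hXa t χ hχ hr⟩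
  rcases hcases with h | ⟨h, h'⟩
  · have hd0 : d = 0 := by rw [hdD, h, zero_mul]
    refine ⟨-ε, f, a, ?_, hinj, hfS, hXpart, fun s t => ?_⟩
    · rcases hε with h | h <;> rw [h] <;> simp
    · rw [hnY, hd0]
      ring
  · -- the swap
    obtain ⟨u, w, huw, huwT⟩ := (Nat.card_eq_two_iff (α := T)).mp (Nat.card_eq_fintype_card.trans h')
    have hall2 : ∀ t : T, t = u ∨ t = w := fun t => by
      have : t ∈ ({u, w} : Set T) := by
        rw [huwT]
        exact Set.mem_univ _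
      simpa using this
    have hdε : d = ε := by rw [hdD, h, one_mul]
    refine ⟨ε, f ∘ Equiv.swap u w, a, hε, hinj.comp (Equiv.swap u w).injective, fun t => hfS _, ?_, fun s t => ?_⟩
    · intro χ hχ hr
      refine hXpart χ hχ fun hr' => hr ?_
      obtain ⟨t, rfl⟩ := hr'
      exact ⟨Equiv.swap u w t, by simp⟩
    · simp only [Function.comp_apply]
      rw [hnY, hdε]
      rcases hall2 s with rfl | rfl <;> rcases hall2 t with rfl | rfl <;> simp [huw, huw.symm]

end Std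

section NF

variable {G : Type u} [Group G] [Fintype G] {A : Type u} [Group A] [Fintype A] {p : ℕ} [hp : Fact p.Prime]
  {S : Finset (IrrCharacter G)} {F : IrrCharacter G → A → ℂ} {E : Subgroup (MulAut A)}

open Classical in
/-- **Fourier expansion of a column.** -/
theorem lat_F_eq_sum (H : LatHyp p S F E) [Fintype (A →* ℂˣ)] {χ : IrrCharacter G} (hχ : χ ∈ S) {v : A} (hv : v ≠ 1) :
    F χ v = ∑ φ ∈ (Finset.univ.erase 1 : Finset (A →* ℂˣ)), cc F χ φ * ((φ v : ℂˣ) : ℂ) := by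
  let Φ : A → ℂ := fun v => if v = 1 then 0 else F χ v
  obtain ⟨C, hC⟩ : ∃ C : ℂ, C = (Nat.card A : ℂ)⁻¹ * ∑ u ∈ (Finset.univ.erase 1 : Finset A), conj (F χ u) := ⟨_, rfl⟩
  have h1 : ∀ φ : A →* ℂˣ, conj (classInner Φ (fun b => ((φ b : ℂˣ) : ℂ))) = cc F χ φ + C := by
    intro φ
    rw [classInner, cc_def, hC, ← mul_add, ← Finset.sum_add_distrib, ← Finset.add_sum_erase _ _ (Finset.mem_univ (1 : A))]
    simp only [Φ, if_true, zero_mul, zero_add, map_mul, map_inv₀, map_natCast, map_sum, Complex.conj_conj]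
    congr 1
    refine Finset.sum_congr rfl fun u hu => ?_
    rw [if_neg (Finset.ne_of_mem_erase hu)]
    ring
  have h2 : ∀ φ : A →* ℂˣ, classInner Φ (fun b => ((φ b : ℂˣ) : ℂ)) = cc F χ φ + conj C := by
    intro φ
    obtain ⟨n, hn⟩ := H.cc_int hχ φ
    have h3 := congrArg (starRingEnd ℂ) (h1 φ)
    rw [Complex.conj_conj, map_add, hn, map_intCast] at h3
    rw [h3, hn]
  have h4 := Cfsg.Agent.Lib.Blocks.AbFrob.inversion H.hc Φ v
  simp only [h2, add_mul] at h4
  rw [Finset.sum_add_distrib, ← Finset.mul_sum, Cfsg.Agent.Lib.Blocks.AbFrob.sum_dual H.hc, if_neg hv, mul_zero, add_zero,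
    ← Finset.add_sum_erase _ _ (Finset.mem_univ (1 : A →* ℂˣ))] at h4
  have h5 : cc F χ (1 : A →* ℂˣ) = 0 := by
    rw [cc_def]
    simp
  rw [h5, zero_mul, zero_add] at h4
  have h6 : Φ v = F χ v := by simp only [Φ, if_neg hv]
  rw [← h6, h4]

open Classical in
/-- **The normal form of the lattice of columns.** -/
structure NF (S : Finset (IrrCharacter G)) (F : IrrCharacter G → A → ℂ) (E : Subgroup (MulAut A))
    (X : Finset (IrrCharacter G)) (a : IrrCharacter G → ℤ) (s₀ : ℤ) (y : (A →* ℂˣ) → IrrCharacter G) : Prop where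
  sub : X ⊆ S
  card : X.card = Nat.card E
  sgn : ∀ χ ∈ X, a χ = 1 ∨ a χ = -1
  sgn₀ : s₀ = 1 ∨ s₀ = -1
  mem : ∀ φ : A →* ℂˣ, φ ≠ 1 → y φ ∈ S ∧ y φ ∉ X
  surj : ∀ χ ∈ S, χ ∉ X → ∃ φ : A →* ℂˣ, φ ≠ 1 ∧ y φ = χ
  inv : ∀ φ : A →* ℂˣ, φ ≠ 1 → ∀ σ ∈ E, y (φ.comp (σ : MulAut A).toMonoidHom) = y φ
  ccX : ∀ χ ∈ X, ∀ φ : A →* ℂˣ, φ ≠ 1 → cc F χ φ = a χ
  ccY : ∀ φ : A →* ℂˣ, φ ≠ 1 → ∀ ψ : A →* ℂˣ, ψ ≠ 1 →
    cc F (y φ) ψ = if ∃ σ ∈ E, ψ = φ.comp (σ : MulAut A).toMonoidHom then (s₀ : ℂ) else 0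

/-- **Existence of the normal form.** -/
theorem exists_nf (H : LatHyp p S F E) [Fintype E] {m : ℕ} (hm1 : 1 ≤ m) (hm : m * Fintype.card E = Nat.card A - 1)
    (hS : S.card = Fintype.card E + m) : ∃ X a s₀ y, NF S F E X a s₀ y := by
  classical
  haveI : Finite (A →* ℂˣ) := Cfsg.Agent.Lib.Blocks.AbFrob.finite_dual H.hc
  letI : Fintype (A →* ℂˣ) := Fintype.ofFinite _
  have hcardD : Fintype.card (A →* ℂˣ) = Nat.card A := by
    rw [← Nat.card_eq_fintype_card]
    exact Cfsg.Agent.Lib.Blocks.AbFrob.card_dual H.hc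
  -- the action on the dual group
  let act : E → (A →* ℂˣ) → (A →* ℂˣ) := fun σ φ => φ.comp ((σ : MulAut A)⁻¹).toMonoidHom
  have hact1 : ∀ φ, act 1 φ = φ := by
    intro φ
    ext a
    simp [act]
  have hactm : ∀ σ τ φ, act (σ * τ) φ = act σ (act τ φ) := by
    intro σ τ φ
    ext a
    simp [act, mul_inv_rev]
  have hactne : ∀ σ : E, ∀ φ : A →* ℂˣ, φ ≠ 1 → act σ φ ≠ 1 := by
    intro σ φ hφ h
    apply hφ
    ext a
    have h5 := congrArg (fun f : A →* ℂˣ => f ((σ : MulAut A) a)) h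
    simpa [act] using h5
  have hfix : ∀ σ : MulAut A, σ ∈ E → σ ≠ 1 → ∀ v : A, σ v = v → v = 1 := by
    intro σ hσ hne v hv
    by_contra hv1
    exact hne (H.hfree σ hσ v hv1 hv)
  obtain ⟨R, hRY, hRu, hRc⟩ := exists_reps act hact1 hactm (Finset.univ.erase (1 : A →* ℂˣ))
    (fun σ φ hφ => Finset.mem_erase.mpr ⟨hactne σ φ (Finset.ne_of_mem_erase hφ), Finset.mem_univ _⟩)
    (fun σ φ hφ h => by
      have h1 : (σ : MulAut A)⁻¹ = 1 := eq_one_of_comp_eq H.hc (hfix _ (E.inv_mem σ.2)) (Finset.ne_of_mem_erase hφ) h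
      apply Subtype.ext
      simpa using h1)
  have hRne : ∀ r ∈ R, r ≠ 1 := fun r hr => Finset.ne_of_mem_erase (hRY hr)
  have hEpos : 0 < Fintype.card E := Fintype.card_pos
  have hRcard : R.card = m := by
    have h1 : R.card * Fintype.card E = m * Fintype.card E := by
      rw [hRc, Finset.card_erase_of_mem (Finset.mem_univ _), Finset.card_univ, hcardD, hm]
    exact Nat.eq_of_mul_eq_mul_right hEpos h1
  have hn : ∀ (χ : IrrCharacter G) (φ : A →* ℂˣ), ∃ n : ℤ, χ ∈ S → cc F χ φ = n := by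
    intro χ φ
    by_cases hχ : χ ∈ S
    · obtain ⟨n, hn⟩ := H.cc_int hχ φ
      exact ⟨n, fun _ => hn⟩
    · exact ⟨0, fun h => absurd h hχ⟩
  choose n hn using hn
  have hgram : ∀ s t : A →* ℂˣ, s ∈ R → t ∈ R → ∑ χ ∈ S, n χ s * n χ t = if s = t then (Fintype.card E : ℤ) + 1 else Fintype.card E := by
    intro s t hs ht
    have h1 : ((∑ χ ∈ S, n χ s * n χ t : ℤ) : ℂ) = ∑ σ : E, (1 + if s = t.comp (σ : MulAut A).toMonoidHom then (1 : ℂ) else 0) := by
      rw [← H.cc_bil (hRne s hs) (hRne t ht)]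
      push_cast
      refine Finset.sum_congr rfl fun χ hχ => ?_
      rw [hn χ s hχ, hn χ t hχ, map_intCast]
    have h2 : ∑ σ : E, (1 + if s = t.comp (σ : MulAut A).toMonoidHom then (1 : ℂ) else 0) =
        ((if s = t then (Fintype.card E : ℤ) + 1 else (Fintype.card E : ℤ) : ℤ) : ℂ) := by
      rw [Finset.sum_add_distrib, Finset.sum_const, Finset.card_univ, nsmul_eq_mul, mul_one]
      by_cases hst : s = t
      · subst hst
        rw [if_pos rfl]
        push_cast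
        congr 1
        rw [Finset.sum_eq_single (1 : E)]
        · rw [if_pos]
          ext a
          simp
        · intro σ _ hσ
          rw [if_neg]
          intro h
          apply hσ
          apply Subtype.ext
          exact eq_one_of_comp_eq H.hc (hfix _ σ.2) (hRne s hs) h.symm
        · simp
      · rw [if_neg hst]
        have h3 : ∀ σ : E, (if s = t.comp (σ : MulAut A).toMonoidHom then (1 : ℂ) else 0) = 0 := by
          intro σ
          rw [if_neg]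
          intro h
          apply hst
          obtain ⟨r, -, hr⟩ := hRu t (hRY ht)
          have e1 := hr t ⟨ht, 1, hact1 t⟩
          have e2 := hr s ⟨hs, σ⁻¹, by
            rw [h]
            ext a
            simp [act]⟩
          rw [e2, e1]
        simp only [h3, Finset.sum_const_zero, add_zero, Int.cast_natCast]
    rw [h2] at h1
    exact Int.cast_injective h1
  have hone : ∀ t : A →* ℂˣ, ∑ χ ∈ S, (n χ t : ℂ) * (χ : G → ℂ) 1 = 0 := by
    intro t
    rw [← H.cc_one t]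
    refine Finset.sum_congr rfl fun χ hχ => ?_
    rw [hn χ t hχ]
  -- the representatives
  have hrep : ∀ φ : A →* ℂˣ, ∃ t : (A →* ℂˣ), φ ≠ 1 → t ∈ R ∧ ∃ σ, act σ φ = t := by
    intro φ
    by_cases hφ : φ = 1
    · exact ⟨1, fun h => absurd hφ h⟩
    · obtain ⟨r, hr, -⟩ := hRu φ (Finset.mem_erase.mpr ⟨hφ, Finset.mem_univ _⟩)
      exact ⟨r, fun _ => hr⟩
  choose rep hrep using hrep
  have hrepu : ∀ φ : A →* ℂˣ, φ ≠ 1 → ∀ t ∈ R, ∀ σ, act σ φ = t → t = rep φ := by
    intro φ hφ t ht σ hσ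
    obtain ⟨r, -, hr⟩ := hRu φ (Finset.mem_erase.mpr ⟨hφ, Finset.mem_univ _⟩)
    rw [hr t ⟨ht, σ, hσ⟩, hr (rep φ) (hrep φ hφ)]
  have hrepeq : ∀ φ ψ : A →* ℂˣ, φ ≠ 1 → ψ ≠ 1 → (rep ψ = rep φ ↔ ∃ σ ∈ E, ψ = φ.comp (σ : MulAut A).toMonoidHom) := by
    intro φ ψ hφ hψ
    constructor
    · intro h
      obtain ⟨-, σ, hσ⟩ := hrep φ hφ
      obtain ⟨-, τ, hτ⟩ := hrep ψ hψ
      refine ⟨(σ : MulAut A)⁻¹ * (τ : MulAut A), mul_mem (inv_mem σ.2) τ.2, ?_⟩
      · have h1 : act τ ψ = act σ φ := by rw [hτ, hσ, h]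
        ext a
        have h2 := congrArg (fun f : A →* ℂˣ => f ((τ : MulAut A) a)) h1
        simpa [act] using congrArg Units.val h2
    · rintro ⟨σ, hσ, rfl⟩
      obtain ⟨-, τ, hτ⟩ := hrep φ hφ
      have h1 : act (τ * ⟨σ, hσ⟩) (φ.comp (σ : MulAut A).toMonoidHom) = rep φ := by
        rw [← hτ]
        ext a
        simp [act, mul_inv_rev]
      exact (hrepu _ hψ _ (hrep φ hφ).1 _ h1).symm
  have hccrep : ∀ χ ∈ S, ∀ φ : A →* ℂˣ, φ ≠ 1 → cc F χ φ = n χ (rep φ) := by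
    intro χ hχ φ hφ
    obtain ⟨-, σ, hσ⟩ := hrep φ hφ
    rw [← hn χ _ hχ, ← hσ]
    exact (H.cc_comp hχ (E.inv_mem σ.2) φ).symm
  -- the integer normal form
  let T := {r // r ∈ R}
  have hcT : Fintype.card T = R.card := Fintype.card_coe R
  have hTne : Nonempty T := by
    rw [← Fintype.card_pos_iff, hcT, hRcard]
    omega
  have hzero : ∀ χ ∈ S, ∃ t : T, n χ t.1 ≠ 0 := by
    intro χ hχ
    obtain ⟨φ, hφ, hne⟩ := H.cc_nz hχ
    refine ⟨⟨rep φ, (hrep φ hφ).1⟩, fun h0 => hne ?_⟩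
    rw [hccrep χ hχ φ hφ, h0]
    simp
  obtain ⟨s₀, f, a, hs₀, hinj, hfS, hXa, hnY⟩ := exists_std_form (T := T) S (fun χ t => n χ t.1) (Fintype.card E)
    (fun s t => by
      rw [hgram s.1 t.1 s.2 t.2]
      by_cases h : s = t
      · subst h
        rw [if_pos rfl, if_pos rfl]
      · rw [if_neg h, if_neg (fun h' => h (Subtype.ext h'))])
    (fun t => hone t.1) (by rw [hcT, hRcard]; exact hS) hzero
  obtain ⟨t₀⟩ := hTne
  let repT : (A →* ℂˣ) → T := fun φ => if h : φ = 1 then t₀ else ⟨rep φ, (hrep φ h).1⟩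
  have hrepT : ∀ φ : A →* ℂˣ, φ ≠ 1 → (repT φ).1 = rep φ := by
    intro φ hφ
    simp only [repT, dif_neg hφ]
  have hXmem : ∀ χ, χ ∈ S.filter (· ∉ Set.range f) ↔ χ ∈ S ∧ χ ∉ Set.range f := fun χ => Finset.mem_filter
  refine ⟨S.filter (· ∉ Set.range f), a, s₀, fun φ => f (repT φ), ⟨Finset.filter_subset _ _, ?_, ?_, hs₀, ?_, ?_, ?_, ?_, ?_⟩⟩
  · rw [Nat.card_eq_fintype_card]
    have h1 : (S.filter (· ∉ Set.range f)).card + (S.filter (fun χ => ¬ χ ∉ Set.range f)).card = S.card :=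
      Finset.card_filter_add_card_filter_not (s := S) _
    have h2 : S.filter (fun χ => ¬ χ ∉ Set.range f) = Finset.univ.image f := by
      ext χ
      simp only [not_not, Finset.mem_filter, Set.mem_range, Finset.mem_image, Finset.mem_univ, true_and]
      constructor
      · exact fun h => h.2
      · rintro ⟨t, rfl⟩
        exact ⟨hfS t, t, rfl⟩
    rw [h2, Finset.card_image_of_injective _ hinj, Finset.card_univ, hcT, hRcard, hS] at h1
    omega
  · intro χ hχ
    obtain ⟨h1, h2⟩ := (hXmem χ).mp hχ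
    exact (hXa χ h1 h2).1
  · intro φ _
    refine ⟨hfS _, fun h => ((hXmem _).mp h).2 ⟨_, rfl⟩⟩
  · intro χ hχ hχX
    have h1 : χ ∈ Set.range f := by
      by_contra h
      exact hχX ((hXmem χ).mpr ⟨hχ, h⟩)
    obtain ⟨t, rfl⟩ := h1
    refine ⟨t.1, hRne _ t.2, ?_⟩
    congr 1
    apply Subtype.ext
    rw [hrepT _ (hRne _ t.2)]
    exact (hrepu t.1 (hRne _ t.2) t.1 t.2 1 (hact1 _)).symm
  · intro φ hφ σ hσ
    have hφ' : φ.comp (σ : MulAut A).toMonoidHom ≠ 1 := by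
      intro h
      apply hφ
      ext b
      have h5 := congrArg (fun f : A →* ℂˣ => f ((σ : MulAut A)⁻¹ b)) h
      simpa using h5
    congr 1
    apply Subtype.ext
    rw [hrepT _ hφ', hrepT _ hφ]
    exact (hrepeq φ _ hφ hφ').mpr ⟨σ, hσ, rfl⟩
  · intro χ hχ φ hφ
    obtain ⟨h1, h2⟩ := (hXmem χ).mp hχ
    rw [hccrep χ h1 φ hφ, ← hrepT φ hφ, (hXa χ h1 h2).2 (repT φ)]
  · intro φ hφ ψ hψ
    rw [hccrep _ (hfS _) ψ hψ, ← hrepT ψ hψ]
    have h1 := hnY (repT ψ) (repT φ)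
    rw [h1]
    by_cases h : ∃ σ ∈ E, ψ = φ.comp (σ : MulAut A).toMonoidHom
    · rw [if_pos h, if_pos]
      · simp
      · apply Subtype.ext
        rw [hrepT _ hψ, hrepT _ hφ]
        exact (hrepeq φ ψ hφ hψ).mpr h
    · rw [if_neg h, if_neg]
      · simp
      · intro h2
        apply h
        have h3 := congrArg Subtype.val h2
        rw [hrepT _ hψ, hrepT _ hφ] at h3
        exact (hrepeq φ ψ hφ hψ).mp h3

variable {X : Finset (IrrCharacter G)} {a : IrrCharacter G → ℤ} {s₀ : ℤ} {y : (A →* ℂˣ) → IrrCharacter G}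

/-- The columns on the non-exceptional characters. -/
theorem NF.F_X (H : LatHyp p S F E) (N : NF S F E X a s₀ y) {χ : IrrCharacter G} (hχ : χ ∈ X) {v : A} (hv : v ≠ 1) :
    F χ v = -(a χ : ℂ) := by
  classical
  haveI : Finite (A →* ℂˣ) := Cfsg.Agent.Lib.Blocks.AbFrob.finite_dual H.hc
  letI : Fintype (A →* ℂˣ) := Fintype.ofFinite _
  rw [lat_F_eq_sum H (N.sub hχ) hv, Finset.sum_congr rfl
    (fun φ hφ => by rw [N.ccX χ hχ φ (Finset.ne_of_mem_erase hφ)]), ← Finset.mul_sum,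
    Cfsg.Agent.Lib.Blocks.AbFrob.sum_erase_dual H.hc hv]
  ring

/-- The columns on the exceptional characters. -/
theorem NF.F_Y (H : LatHyp p S F E) (N : NF S F E X a s₀ y) [Fintype E] {φ : A →* ℂˣ} (hφ : φ ≠ 1) {v : A} (hv : v ≠ 1) :
    F (y φ) v = (s₀ : ℂ) * ∑ σ : E, ((φ ((σ : MulAut A) v) : ℂˣ) : ℂ) := by
  classical
  haveI : Finite (A →* ℂˣ) := Cfsg.Agent.Lib.Blocks.AbFrob.finite_dual H.hc
  letI : Fintype (A →* ℂˣ) := Fintype.ofFinite _
  have hfix : ∀ σ : MulAut A, σ ∈ E → σ ≠ 1 → ∀ v : A, σ v = v → v = 1 := by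
    intro σ hσ hne v hv
    by_contra hv1
    exact hne (H.hfree σ hσ v hv1 hv)
  rw [lat_F_eq_sum H (N.mem φ hφ).1 hv, Finset.sum_congr rfl
    (fun ψ hψ => by rw [N.ccY φ hφ ψ (Finset.ne_of_mem_erase hψ), ite_mul, zero_mul]), ← Finset.sum_filter, Finset.mul_sum]
  have himg : (Finset.univ.erase (1 : A →* ℂˣ)).filter (fun ψ => ∃ σ ∈ E, ψ = φ.comp (σ : MulAut A).toMonoidHom) =
      (Finset.univ : Finset E).image (fun σ : E => φ.comp (σ : MulAut A).toMonoidHom) := by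
    ext ψ
    simp only [Finset.mem_filter, Finset.mem_erase, Finset.mem_univ, and_true, Finset.mem_image, true_and, Subtype.exists,
      exists_prop]
    constructor
    · rintro ⟨-, σ, hσ, rfl⟩
      exact ⟨σ, hσ, rfl⟩
    · rintro ⟨σ, hσ, rfl⟩
      refine ⟨?_, σ, hσ, rfl⟩
      intro h
      apply hφ
      ext b
      have h5 := congrArg (fun f : A →* ℂˣ => f ((σ : MulAut A)⁻¹ b)) h
      simpa using h5
  have hinj : Function.Injective (fun σ : E => φ.comp (σ : MulAut A).toMonoidHom) := by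
    intro σ τ h
    have h1 : φ.comp ((σ * τ⁻¹ : E) : MulAut A).toMonoidHom = φ := by
      ext b
      have h5 := congrArg (fun f : A →* ℂˣ => f ((τ : MulAut A)⁻¹ b)) h
      have h6 := congrArg Units.val h5
      simpa using h6
    have h2 := eq_one_of_comp_eq H.hc (hfix _ (σ * τ⁻¹ : E).2) hφ h1
    have h3 : σ * τ⁻¹ = 1 := Subtype.ext h2
    exact mul_inv_eq_one.mp h3
  rw [himg, Finset.sum_image (fun σ _ τ _ h => hinj h)]
  refine Finset.sum_congr rfl fun σ _ => ?_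
  rfl

/-- The exceptional characters separate the orbits. -/
theorem NF.y_eq (N : NF S F E X a s₀ y) {φ ψ : A →* ℂˣ} (hφ : φ ≠ 1) (hψ : ψ ≠ 1) (h : y φ = y ψ) :
    ∃ σ ∈ E, ψ = φ.comp (σ : MulAut A).toMonoidHom := by
  classical
  by_contra hcon
  have h1 := N.ccY φ hφ ψ hψ
  have h2 := N.ccY ψ hψ ψ hψ
  rw [if_neg hcon] at h1
  rw [if_pos ⟨1, E.one_mem, by ext b; simp⟩, ← h, h1] at h2
  have hs : (s₀ : ℂ) ≠ 0 := by
    rcases N.sgn₀ with h | h <;> rw [h] <;> norm_num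
  exact hs h2.symm

end NF

end Cfsg.Agent.Lib.Dade
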