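import Mathlib
import Cfsg.Agent.Lib.Dade.PA
import Cfsg.Agent.Lib.Blocks.PerfectV4b

/-!
# Blocks with cyclic defect groups: matching of the normal forms and perfect isometries
-/

set_option autoImplicit false
set_option linter.unusedSectionVars false
set_option linter.style.haveILetI false

namespace Cfsg.Agent.Lib.Dade

open Cfsg Cfsg.Agent.Lib.Blocks.Local Cfsg.Agent.Lib.Blocks.Central
open Cfsg.Agent.Lib.Blocks.AbFree
open ComplexConjugate

universe u v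

section Match

variable {G₁ : Type u} [Group G₁] [Fintype G₁] {A₁ : Type u} [Group A₁] [Fintype A₁]
  {G₂ : Type v} [Group G₂] [Fintype G₂] {A₂ : Type v} [Group A₂] [Fintype A₂] {p : ℕ} [hp : Fact p.Prime]
  {S₁ X₁ : Finset (IrrCharacter G₁)} {F₁ : IrrCharacter G₁ → A₁ → ℂ} {E₁ : Subgroup (MulAut A₁)} {a₁ : IrrCharacter G₁ → ℤ}
  {s₁ : ℤ} {y₁ : (A₁ →* ℂˣ) → IrrCharacter G₁}
  {S₂ X₂ : Finset (IrrCharacter G₂)} {F₂ : IrrCharacter G₂ → A₂ → ℂ} {E₂ : Subgroup (MulAut A₂)} {a₂ : IrrCharacter G₂ → ℤ}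
  {s₂ : ℤ} {y₂ : (A₂ →* ℂˣ) → IrrCharacter G₂}

/-- **The bijection between two blocks with the same numerical invariants.** -/
theorem exists_matching (H₁ : LatHyp p S₁ F₁ E₁) (N₁ : NF S₁ F₁ E₁ X₁ a₁ s₁ y₁) (H₂ : LatHyp p S₂ F₂ E₂)
    (N₂ : NF S₂ F₂ E₂ X₂ a₂ s₂ y₂) (ρ : A₁ ≃* A₂) (hE₁ : ∀ σ ∈ E₁, ρ.symm.trans (MulEquiv.trans σ ρ) ∈ E₂)
    (hE₂ : ∀ τ ∈ E₂, ρ.trans (MulEquiv.trans τ ρ.symm) ∈ E₁) (hcard : Nat.card E₁ = Nat.card E₂) :
    ∃ (I : IrrCharacter G₂ → IrrCharacter G₁) (ε : IrrCharacter G₂ → ℤ),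
      Set.BijOn I (S₂ : Set (IrrCharacter G₂)) (S₁ : Set (IrrCharacter G₁)) ∧ (∀ η ∈ S₂, ε η = 1 ∨ ε η = -1) ∧
      (∀ η ∈ S₂, ∀ v : A₁, v ≠ 1 → (ε η : ℂ) * F₂ η (ρ v) = conj (F₁ (I η) v)) ∧
      (∀ η ∈ S₂, η ∉ X₂ → ε η = s₁ * s₂) := by
  classical
  letI iE₁ : Fintype E₁ := Fintype.ofFinite _
  letI iE₂ : Fintype E₂ := Fintype.ofFinite _
  have hXc : X₂.card = X₁.card := by rw [N₂.card, N₁.card, hcard]
  let β : X₂ ≃ X₁ := Finset.equivOfCardEq hXc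
  let r : (A₂ →* ℂˣ) → (A₁ →* ℂˣ) := fun φ => (φ.comp ρ.toMonoidHom)⁻¹
  have hrv : ∀ (φ : A₂ →* ℂˣ) (x : A₁), r φ x = (φ (ρ x))⁻¹ := fun φ x => rfl
  have hr : ∀ φ : A₂ →* ℂˣ, φ ≠ 1 → r φ ≠ 1 := by
    intro φ hφ h
    apply hφ
    ext b
    have h5 := congrArg (fun f : A₁ →* ℂˣ => f (ρ.symm b)) h
    simp only [hrv, MulEquiv.apply_symm_apply, MonoidHom.one_apply, inv_eq_one] at h5
    rw [h5]
    rfl
  let z : IrrCharacter G₂ → (A₂ →* ℂˣ) := fun η => if h : ∃ φ : A₂ →* ℂˣ, φ ≠ 1 ∧ y₂ φ = η then h.choose else 1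
  have hz : ∀ η ∈ S₂, η ∉ X₂ → z η ≠ 1 ∧ y₂ (z η) = η := by
    intro η hη hηX
    have h := N₂.surj η hη hηX
    simp only [z, dif_pos h]
    exact h.choose_spec
  let I : IrrCharacter G₂ → IrrCharacter G₁ := fun η => if h : η ∈ X₂ then (β ⟨η, h⟩).1 else y₁ (r (z η))
  have hI1 : ∀ η (h : η ∈ X₂), I η = (β ⟨η, h⟩).1 := fun η h => by simp only [I, dif_pos h]
  have hI2 : ∀ η, η ∉ X₂ → I η = y₁ (r (z η)) := fun η h => by simp only [I, dif_neg h]
  have hIX : ∀ η (h : η ∈ X₂), I η ∈ X₁ := fun η h => by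
    rw [hI1 η h]
    exact (β ⟨η, h⟩).2
  let ε : IrrCharacter G₂ → ℤ := fun η => if η ∈ X₂ then a₁ (I η) * a₂ η else s₁ * s₂
  have hε1 : ∀ η, η ∈ X₂ → ε η = a₁ (I η) * a₂ η := fun η h => by simp only [ε, if_pos h]
  have hε2 : ∀ η, η ∉ X₂ → ε η = s₁ * s₂ := fun η h => by simp only [ε, if_neg h]
  -- conjugation of the groups
  have hconj : ∀ (φ : A₂ →* ℂˣ) (τ : MulAut A₂), τ ∈ E₂ → ∃ σ ∈ E₁, r (φ.comp τ.toMonoidHom) = (r φ).comp σ.toMonoidHom ∧
      ∀ x, ρ (σ x) = τ (ρ x) := by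
    intro φ τ hτ
    refine ⟨_, hE₂ τ hτ, ?_, ?_⟩
    · ext b
      simp [hrv]
    · intro x
      simp
  have hconj' : ∀ (φ : A₂ →* ℂˣ) (σ : MulAut A₁), σ ∈ E₁ → ∃ τ ∈ E₂, r (φ.comp τ.toMonoidHom) = (r φ).comp σ.toMonoidHom := by
    intro φ σ hσ
    refine ⟨_, hE₁ σ hσ, ?_⟩
    ext b
    simp [hrv]
  refine ⟨I, ε, ⟨?_, ?_, ?_⟩, ?_, ?_, fun η _ h => hε2 η h⟩
  · -- maps to
    intro η hη
    by_cases h : η ∈ X₂
    · exact N₁.sub (hIX η h)
    · rw [hI2 η h]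
      exact (N₁.mem _ (hr _ (hz η hη h).1)).1
  · -- injective
    intro η hη η' hη' hI
    by_cases h : η ∈ X₂
    · by_cases h' : η' ∈ X₂
      · rw [hI1 η h, hI1 η' h'] at hI
        have h3 := β.injective (Subtype.ext hI)
        exact congrArg Subtype.val h3
      · rw [hI2 η' h'] at hI
        exact absurd (hI ▸ hIX η h) (N₁.mem _ (hr _ (hz η' hη' h').1)).2
    · by_cases h' : η' ∈ X₂
      · rw [hI2 η h] at hI
        exact absurd (hI ▸ hIX η' h') (N₁.mem _ (hr _ (hz η hη h).1)).2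
      · rw [hI2 η h, hI2 η' h'] at hI
        obtain ⟨σ, hσ, h3⟩ := N₁.y_eq (hr _ (hz η hη h).1) (hr _ (hz η' hη' h').1) hI
        obtain ⟨τ, hτ, h4⟩ := hconj' (z η) σ hσ
        have h5 : z η' = (z η).comp τ.toMonoidHom := by
          ext b
          have h6 : r (z η') = r ((z η).comp τ.toMonoidHom) := by rw [h3, h4]
          have h7 := congrArg (fun f : A₁ →* ℂˣ => f (ρ.symm b)) h6
          simp only [hrv, MulEquiv.apply_symm_apply, inv_inj] at h7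
          rw [h7]
        have h8 : y₂ (z η') = y₂ (z η) := by
          rw [h5]
          exact N₂.inv _ (hz η hη h).1 τ hτ
        rw [← (hz η hη h).2, ← (hz η' hη' h').2, h8]
  · -- surjective
    intro χ hχ
    by_cases h : χ ∈ X₁
    · obtain ⟨η, hη⟩ := β.surjective ⟨χ, h⟩
      refine ⟨η.1, N₂.sub η.2, ?_⟩
      rw [hI1 η.1 η.2]
      exact congrArg Subtype.val hη
    · obtain ⟨φ₁, hφ₁, rfl⟩ := N₁.surj χ hχ h
      let φ₂ : A₂ →* ℂˣ := (φ₁.comp ρ.symm.toMonoidHom)⁻¹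
      have hφ₂v : ∀ x, φ₂ x = (φ₁ (ρ.symm x))⁻¹ := fun x => rfl
      have hφ₂ : φ₂ ≠ 1 := by
        intro h0
        apply hφ₁
        ext b
        have h5 := congrArg (fun f : A₂ →* ℂˣ => f (ρ b)) h0
        simp only [hφ₂v, MulEquiv.symm_apply_apply, MonoidHom.one_apply, inv_eq_one] at h5
        rw [h5]
        rfl
      have hrφ₂ : r φ₂ = φ₁ := by
        ext b
        simp [hrv, hφ₂v]
      obtain ⟨hη, hηX⟩ := N₂.mem φ₂ hφ₂
      refine ⟨y₂ φ₂, hη, ?_⟩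
      obtain ⟨hz1, hz2⟩ := hz _ hη hηX
      obtain ⟨τ, hτ, h3⟩ := N₂.y_eq hφ₂ hz1 hz2.symm
      obtain ⟨σ, hσ, h4, -⟩ := hconj φ₂ τ hτ
      rw [hI2 _ hηX, h3, h4, hrφ₂]
      exact N₁.inv _ hφ₁ σ hσ
  · -- signs
    intro η hη
    by_cases h : η ∈ X₂
    · rw [hε1 η h]
      rcases N₁.sgn _ (hIX η h) with h1 | h1 <;> rcases N₂.sgn _ h with h2 | h2 <;> rw [h1, h2] <;> norm_num
    · rw [hε2 η h]
      rcases N₁.sgn₀ with h1 | h1 <;> rcases N₂.sgn₀ with h2 | h2 <;> rw [h1, h2] <;> norm_num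
  · -- the matching
    intro η hη v hv
    have hρv : ρ v ≠ 1 := by
      intro h
      apply hv
      simpa using h
    by_cases h : η ∈ X₂
    · rw [hε1 η h, N₂.F_X H₂ h hρv, N₁.F_X H₁ (hIX η h) hv]
      have h2 : ((a₂ η : ℂ)) * (a₂ η : ℂ) = 1 := by
        rcases N₂.sgn _ h with h2 | h2 <;> rw [h2] <;> simp
      simp only [map_neg, map_intCast]
      push_cast
      linear_combination (-(a₁ (I η) : ℂ)) * h2
    · obtain ⟨hz1, hz2⟩ := hz η hη h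
      rw [hε2 η h, hI2 η h]
      have h3 : F₂ η (ρ v) = (s₂ : ℂ) * ∑ τ : E₂, (((z η) ((τ : MulAut A₂) (ρ v)) : ℂˣ) : ℂ) := by
        conv_lhs => rw [← hz2]
        exact N₂.F_Y H₂ hz1 hρv
      rw [h3, N₁.F_Y H₁ (hr _ hz1) hv]
      have hs : (s₂ : ℂ) * (s₂ : ℂ) = 1 := by
        rcases N₂.sgn₀ with h2 | h2 <;> rw [h2] <;> simp
      have h4 : ∑ τ : E₂, (((z η) ((τ : MulAut A₂) (ρ v)) : ℂˣ) : ℂ) =
          ∑ σ : E₁, (((z η) (ρ ((σ : MulAut A₁) v)) : ℂˣ) : ℂ) := by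
        symm
        refine Fintype.sum_equiv (⟨fun σ => ⟨_, hE₁ σ.1 σ.2⟩, fun τ => ⟨_, hE₂ τ.1 τ.2⟩, ?_, ?_⟩ : E₁ ≃ E₂) _ _ fun σ => ?_
        · intro σ
          apply Subtype.ext
          ext x
          simp
        · intro τ
          apply Subtype.ext
          ext x
          simp
        · show _ = (((z η) ((ρ.symm.trans (MulEquiv.trans (σ : MulAut A₁) ρ)) (ρ v)) : ℂˣ) : ℂ)
          simp
      have h5 : conj ((s₁ : ℂ) * ∑ σ : E₁, (((r (z η)) ((σ : MulAut A₁) v) : ℂˣ) : ℂ)) =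
          (s₁ : ℂ) * ∑ σ : E₁, (((z η) (ρ ((σ : MulAut A₁) v)) : ℂˣ) : ℂ) := by
        haveI : Finite (A₁ →* ℂˣ) := Cfsg.Agent.Lib.Blocks.AbFrob.finite_dual H₁.hc
        letI : Fintype (A₁ →* ℂˣ) := Fintype.ofFinite _
        rw [map_mul, map_intCast, map_sum]
        congr 1
        refine Finset.sum_congr rfl fun σ _ => ?_
        rw [Cfsg.Agent.Lib.Blocks.AbFrob.conj_dual, hrv]
        simp
      rw [h5, h4]
      push_cast
      linear_combination ((s₁ : ℂ) * ∑ σ : E₁, (((z η) (ρ ((σ : MulAut A₁) v)) : ℂˣ) : ℂ)) * hs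

end Match

section Perfect

variable {G : Type u} [Group G] [Fintype G] {A : Type u} [Group A] [Fintype A]

/-- The column sum. -/
noncomputable def gam (S : Finset (IrrCharacter G)) (F : IrrCharacter G → A → ℂ) (v : A) (g : G) : ℂ :=
  ∑ χ ∈ S, conj (F χ v) * (χ : G → ℂ) g

open Classical in
/-- The arithmetic data of a family of columns. -/
structure ColData (p : ℕ) (M : Ideal AlgInt) (S : Finset (IrrCharacter G)) (F : IrrCharacter G → A → ℂ)
    (E : Subgroup (MulAut A)) : Prop where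
  reg0 : ∀ v : A, v ≠ 1 → ∀ g : G, ¬ p ∣ orderOf g → gam S F v g = 0
  locq : ∀ v : A, v ≠ 1 → ∀ g : G, MemLocalRing M (gam S F v g / (Nat.card A : ℂ))
  locC : ∀ v : A, v ≠ 1 → ∀ g : G, MemLocalRing M (gam S F v g / (Nat.card (Subgroup.centralizer ({g} : Set G)) : ℂ))
  inv : ∀ χ₀ ∈ S, ∀ g : G, p ∣ orderOf g → (χ₀ : G → ℂ) g =
    ((Nat.card E : ℂ) * (Nat.card A : ℂ))⁻¹ * ∑ v ∈ (Finset.univ.erase 1 : Finset A), F χ₀ v * gam S F v g

end Perfect

section Perfect2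

variable {G₁ : Type u} [Group G₁] [Fintype G₁] {A₁ : Type u} [Group A₁] [Fintype A₁]
  {G₂ : Type v} [Group G₂] [Fintype G₂] {A₂ : Type v} [Group A₂] [Fintype A₂] {p : ℕ} [hp : Fact p.Prime]
  {M : Ideal AlgInt} [hMp : M.IsPrime]
  {F₁ : IrrCharacter G₁ → A₁ → ℂ} {E₁ : Subgroup (MulAut A₁)}
  {F₂ : IrrCharacter G₂ → A₂ → ℂ} {E₂ : Subgroup (MulAut A₂)}

open Classical in
/-- **The abstract criterion for a perfect isometry.** -/
theorem isPerfectFun_of_colData (hM : IsPModular p M) {B : Set (IrrCharacter G₁)} {c : Set (IrrCharacter G₂)}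
    (C₁ : ColData p M (Finset.univ.filter (· ∈ B)) F₁ E₁) (C₂ : ColData p M (Finset.univ.filter (· ∈ c)) F₂ E₂)
    (ρ : A₁ ≃* A₂) (hcard : Nat.card E₁ = Nat.card E₂) (hep : ¬ p ∣ Nat.card E₁) {I : IrrCharacter G₂ → IrrCharacter G₁}
    {ε : IrrCharacter G₂ → ℤ} (hbij : Set.BijOn I c B) (hsgn : ∀ η ∈ c, ε η = 1 ∨ ε η = -1)
    (hm : ∀ η ∈ c, ∀ v : A₁, v ≠ 1 → (ε η : ℂ) * F₂ η (ρ v) = conj (F₁ (I η) v)) :
    IsPerfectFun p M (signedBijectionKernel c I ε) := by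
  set S₁ : Finset (IrrCharacter G₁) := Finset.univ.filter (· ∈ B) with hS₁
  set S₂ : Finset (IrrCharacter G₂) := Finset.univ.filter (· ∈ c) with hS₂
  have hq : Nat.card A₁ = Nat.card A₂ := Nat.card_congr ρ.toEquiv
  have hρne : ∀ v : A₁, v ≠ 1 → ρ v ≠ 1 := by
    intro v hv h
    apply hv
    simpa using h
  have hε2 : ∀ η ∈ S₂, (ε η : ℂ) * (ε η : ℂ) = 1 := by
    intro η hη
    rcases hsgn η (Finset.mem_filter.mp hη).2 with h | h <;> rw [h] <;> simp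
  have hIS : ∀ η ∈ S₂, I η ∈ S₁ := fun η hη =>
    Finset.mem_filter.mpr ⟨Finset.mem_univ _, hbij.mapsTo (Finset.mem_filter.mp hη).2⟩
  have hμ : ∀ x y, signedBijectionKernel c I ε x y = ∑ η ∈ S₂, (ε η : ℂ) * (I η : G₁ → ℂ) x * (η : G₂ → ℂ) y := by
    intro x y
    rw [signedBijectionKernel, Cfsg.Agent.Lib.Blocks.Osima.finsum_mem_eq_sum_filter]
  -- the two formulas
  set K : ℂ := ((Nat.card E₁ : ℂ) * (Nat.card A₁ : ℂ))⁻¹ with hK
  have hK₂ : ((Nat.card E₂ : ℂ) * (Nat.card A₂ : ℂ))⁻¹ = K := by rw [← hcard, ← hq]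
  have key₁ : ∀ x y, p ∣ orderOf x → ∑ η ∈ S₂, (ε η : ℂ) * (I η : G₁ → ℂ) x * (η : G₂ → ℂ) y =
      K * ∑ v ∈ (Finset.univ.erase 1 : Finset A₁), gam S₁ F₁ v x * gam S₂ F₂ (ρ v) y := by
    intro x y hx
    have h1 : ∀ η ∈ S₂, (ε η : ℂ) * (I η : G₁ → ℂ) x * (η : G₂ → ℂ) y =
        K * ∑ v ∈ (Finset.univ.erase 1 : Finset A₁), gam S₁ F₁ v x * (conj (F₂ η (ρ v)) * (η : G₂ → ℂ) y) := by
      intro η hη
      rw [C₁.inv _ (hIS η hη) x hx, ← hK]
      simp only [Finset.mul_sum, Finset.sum_mul]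
      refine Finset.sum_congr rfl fun v hv => ?_
      have h2 := hm η (Finset.mem_filter.mp hη).2 v (Finset.ne_of_mem_erase hv)
      have h3 := congrArg (starRingEnd ℂ) h2
      rw [map_mul, map_intCast, Complex.conj_conj] at h3
      rw [← h3]
      linear_combination (K * conj (F₂ η (ρ v)) * gam S₁ F₁ v x * (η : G₂ → ℂ) y) * hε2 η hη
    rw [Finset.sum_congr rfl h1, ← Finset.mul_sum, Finset.sum_comm]
    congr 1
    refine Finset.sum_congr rfl fun v _ => ?_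
    rw [← Finset.mul_sum]
    rfl
  have key₂ : ∀ x y, p ∣ orderOf y → ∑ η ∈ S₂, (ε η : ℂ) * (I η : G₁ → ℂ) x * (η : G₂ → ℂ) y =
      K * ∑ v ∈ (Finset.univ.erase 1 : Finset A₁), gam S₁ F₁ v x * gam S₂ F₂ (ρ v) y := by
    intro x y hy
    have h1 : ∀ η ∈ S₂, (ε η : ℂ) * (I η : G₁ → ℂ) x * (η : G₂ → ℂ) y =
        K * ∑ v ∈ (Finset.univ.erase 1 : Finset A₁), (conj (F₁ (I η) v) * (I η : G₁ → ℂ) x) * gam S₂ F₂ (ρ v) y := by
      intro η hη
      rw [C₂.inv _ hη y hy, hK₂]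
      have h4 : ∑ w ∈ (Finset.univ.erase 1 : Finset A₂), F₂ η w * gam S₂ F₂ w y =
          ∑ v ∈ (Finset.univ.erase 1 : Finset A₁), F₂ η (ρ v) * gam S₂ F₂ (ρ v) y := by
        symm
        refine Finset.sum_equiv ρ.toEquiv ?_ fun v _ => rfl
        intro v
        simp only [Finset.mem_erase, Finset.mem_univ, and_true, ne_eq, MulEquiv.toEquiv_eq_coe, EquivLike.coe_coe,
          EmbeddingLike.map_eq_one_iff]
      rw [h4]
      simp only [Finset.mul_sum, Finset.sum_mul]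
      refine Finset.sum_congr rfl fun v hv => ?_
      rw [← hm η (Finset.mem_filter.mp hη).2 v (Finset.ne_of_mem_erase hv)]
      ring
    rw [Finset.sum_congr rfl h1, ← Finset.mul_sum, Finset.sum_comm]
    congr 1
    refine Finset.sum_congr rfl fun v _ => ?_
    rw [← Finset.sum_mul]
    congr 1
    have := Cfsg.Agent.Lib.Blocks.PerfectV4.sum_filter_bijOn hbij (fun χ : IrrCharacter G₁ => conj (F₁ χ v) * (χ : G₁ → ℂ) x)
    exact this
  have hsr : ∀ (x : G₁) (y : G₂), p ∣ orderOf x → ¬ p ∣ orderOf y →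
      ∑ η ∈ S₂, (ε η : ℂ) * (I η : G₁ → ℂ) x * (η : G₂ → ℂ) y = 0 := by
    intro x y hx hy
    rw [key₁ x y hx]
    apply mul_eq_zero_of_right
    refine Finset.sum_eq_zero fun v hv => ?_
    rw [C₂.reg0 _ (hρne v (Finset.ne_of_mem_erase hv)) y hy, mul_zero]
  have hrs : ∀ (x : G₁) (y : G₂), ¬ p ∣ orderOf x → p ∣ orderOf y →
      ∑ η ∈ S₂, (ε η : ℂ) * (I η : G₁ → ℂ) x * (η : G₂ → ℂ) y = 0 := by
    intro x y hx hy
    rw [key₂ x y hy]
    apply mul_eq_zero_of_right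
    refine Finset.sum_eq_zero fun v hv => ?_
    rw [C₁.reg0 _ (Finset.ne_of_mem_erase hv) x hx, zero_mul]
  have hKinv : MemLocalRing M ((Nat.card E₁ : ℂ)⁻¹) := memLocalRing_inv_natCast hM hep
  intro x y
  rw [hμ]
  by_cases hx : p ∣ orderOf x
  · by_cases hy : p ∣ orderOf y
    · rw [key₁ x y hx]
      refine ⟨?_, ?_, Or.inl (by simp [IsPRegular, hx, hy])⟩
      · have h3 : (K * ∑ v ∈ (Finset.univ.erase 1 : Finset A₁), gam S₁ F₁ v x * gam S₂ F₂ (ρ v) y) /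
            (Nat.card (Subgroup.centralizer ({x} : Set G₁)) : ℂ) =
            (Nat.card E₁ : ℂ)⁻¹ * ∑ v ∈ (Finset.univ.erase 1 : Finset A₁),
              (gam S₁ F₁ v x / (Nat.card (Subgroup.centralizer ({x} : Set G₁)) : ℂ)) *
                (gam S₂ F₂ (ρ v) y / (Nat.card A₂ : ℂ)) := by
          rw [hK, ← hq, Finset.mul_sum, Finset.sum_div, Finset.mul_sum]
          refine Finset.sum_congr rfl fun v _ => ?_
          ring
        rw [h3]
        exact memLocalRing_mul hKinv (memLocalRing_sum _ _ fun v hv => memLocalRing_mul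
          (C₁.locC v (Finset.ne_of_mem_erase hv) x) (C₂.locq _ (hρne v (Finset.ne_of_mem_erase hv)) y))
      · have h3 : (K * ∑ v ∈ (Finset.univ.erase 1 : Finset A₁), gam S₁ F₁ v x * gam S₂ F₂ (ρ v) y) /
            (Nat.card (Subgroup.centralizer ({y} : Set G₂)) : ℂ) =
            (Nat.card E₁ : ℂ)⁻¹ * ∑ v ∈ (Finset.univ.erase 1 : Finset A₁),
              (gam S₁ F₁ v x / (Nat.card A₁ : ℂ)) *
                (gam S₂ F₂ (ρ v) y / (Nat.card (Subgroup.centralizer ({y} : Set G₂)) : ℂ)) := by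
          rw [hK, Finset.mul_sum, Finset.sum_div, Finset.mul_sum]
          refine Finset.sum_congr rfl fun v _ => ?_
          ring
        rw [h3]
        exact memLocalRing_mul hKinv (memLocalRing_sum _ _ fun v hv => memLocalRing_mul
          (C₁.locq v (Finset.ne_of_mem_erase hv) x) (C₂.locC _ (hρne v (Finset.ne_of_mem_erase hv)) y))
    · rw [hsr x y hx hy, zero_div, zero_div]
      exact ⟨memLocalRing_zero, memLocalRing_zero, Or.inr rfl⟩
  · by_cases hy : p ∣ orderOf y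
    · rw [hrs x y hx hy, zero_div, zero_div]
      exact ⟨memLocalRing_zero, memLocalRing_zero, Or.inr rfl⟩
    · refine ⟨?_, ?_, Or.inl (by simp [IsPRegular, hx, hy])⟩
      · have h1 := Cfsg.Agent.Lib.Blocks.KleinFour.memLocalRing_div_card_centralizer (p := p) hM S₂
          (fun η => (ε η : ℂ) * (η : G₂ → ℂ) y) I
          (fun η _ => memLocalRing_mul (memLocalRing_intCast _) (memLocalRing_of_isIntegral (isIntegral_irr η.2 y)))
          (fun x' hx' => by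
            have := hsr x' y hx' hy
            rw [← this]
            exact Finset.sum_congr rfl fun η _ => by ring) x
        convert h1 using 2
        exact Finset.sum_congr rfl fun η _ => by ring
      · have h1 := Cfsg.Agent.Lib.Blocks.KleinFour.memLocalRing_div_card_centralizer (p := p) hM S₂
          (fun η => (ε η : ℂ) * (I η : G₁ → ℂ) x) id
          (fun η _ => memLocalRing_mul (memLocalRing_intCast _) (memLocalRing_of_isIntegral (isIntegral_irr (I η).2 x)))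
          (fun y' hy' => hrs x y' hx hy') y
        exact h1

end Perfect2

end Cfsg.Agent.Lib.Dade
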